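import Cfsg.Agent.Lib.Golay.Core

/-!
# The punctured length-23 code in the bitmask model
-/

set_option autoImplicit false

namespace Cfsg.Agent.Lib.Golay23.Basic

open Cfsg Cfsg.Agent.Lib.Golay.Core

/-- The punctured code. -/
def PC : Set (ZMod 23 → ZMod 2) := {u | ∃ w ∈ golayCode, ∀ x : ZMod 23, u x = w (some x)}

/-- The word of length 23 of a mask. -/
def pw (n : ℕ) : ZMod 23 → ZMod 2 := fun x => wordOf n (some x)

/-- The low 23 bits. -/
def low (n : ℕ) : ℕ := Nat.land n 8388607

theorem pw_eq_of_low (n : ℕ) : pw (low n) = pw n := by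
  funext x
  have hx : ZMod.val x < 23 := ZMod.val_lt x
  have h : (low n).testBit (ZMod.val x) = n.testBit (ZMod.val x) := by
    show (n &&& (2 ^ 23 - 1)).testBit _ = _
    rw [Nat.testBit_and, Nat.testBit_two_pow_sub_one]
    simp [hx]
  simp only [pw, wordOf, idx, h]
  rfl

theorem mem_PC_iff {u : ZMod 23 → ZMod 2} : u ∈ PC ↔ ∃ m < 4096, u = pw (code m) := by
  constructor
  · rintro ⟨w, hw, h⟩
    obtain ⟨m, hm, rfl⟩ := mem_golayCode_iff.mp hw
    exact ⟨m, hm, funext h⟩
  · rintro ⟨m, hm, rfl⟩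
    exact ⟨_, mem_golayCode_iff.mpr ⟨m, hm, rfl⟩, fun _ => rfl⟩

theorem hammingNorm_pw (n : ℕ) : hammingNorm (pw n) = pop (low n) := by
  rw [← card_setOf]
  have h : (setOf (low n)) = (Finset.univ.filter fun x : ZMod 23 => pw n x ≠ 0).map
      ⟨some, Option.some_injective _⟩ := by
    ext p
    rw [mem_setOf, Finset.mem_map]
    cases p with
    | none =>
      constructor
      · intro h
        have h2 : (low n).testBit 23 = false := by
          show (n &&& (2 ^ 23 - 1)).testBit _ = _
          rw [Nat.testBit_and, Nat.testBit_two_pow_sub_one]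
          simp
        have h3 : (low n).testBit 23 = true := h
        rw [h2] at h3
        exact absurd h3 (by simp)
      · rintro ⟨x, -, hx⟩
        exact absurd hx (by simp)
    | some x =>
      have hx : ZMod.val x < 23 := ZMod.val_lt x
      have h : (low n).testBit (ZMod.val x) = n.testBit (ZMod.val x) := by
        show (n &&& (2 ^ 23 - 1)).testBit _ = _
        rw [Nat.testBit_and, Nat.testBit_two_pow_sub_one]
        simp [hx]
      constructor
      · intro hb
        refine ⟨x, ?_, rfl⟩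
        rw [Finset.mem_filter]
        refine ⟨Finset.mem_univ _, ?_⟩
        have hb' : n.testBit (ZMod.val x) = true := by
          rw [← h]; exact hb
        simp only [pw, wordOf, idx, hb']
        simp
      · rintro ⟨y, hy, hyx⟩
        have : y = x := Option.some_inj.mp hyx
        subst this
        rw [Finset.mem_filter] at hy
        show (low n).testBit (ZMod.val y) = true
        rw [h]
        by_contra hc
        apply hy.2
        simp only [pw, wordOf, idx]
        simp [hc]
  rw [h, Finset.card_map]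
  rfl

theorem pw_injOn {a b : ℕ} (ha : a < 4096) (hb : b < 4096) (h : pw (code a) = pw (code b)) :
    a = b := by
  have key : ∀ m < 4096, ∀ i < 12, (code m).testBit i = m.testBit i := by
    intro m hm i hi
    have h1 : (Nat.land (code m) 4095).testBit i = (code m).testBit i := by
      show ((code m) &&& (2 ^ 12 - 1)).testBit i = _
      rw [Nat.testBit_and, Nat.testBit_two_pow_sub_one]
      simp [hi]
    rw [← h1, code_low hm]
  apply Nat.eq_of_testBit_eq
  intro i
  by_cases hi : i < 12
  · rw [← key a ha i hi, ← key b hb i hi]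
    have h1 := congrFun h (i : ZMod 23)
    have hval : ZMod.val (i : ZMod 23) = i := ZMod.val_cast_of_lt (by omega)
    simp only [pw, wordOf, idx, hval] at h1
    cases h2 : (code a).testBit i <;> cases h3 : (code b).testBit i <;> simp_all
  · have h4 : (4096 : ℕ) ≤ 2 ^ i := by
      calc (4096 : ℕ) = 2 ^ 12 := by norm_num
        _ ≤ 2 ^ i := Nat.pow_le_pow_right (by norm_num) (by omega)
    rw [Nat.testBit_eq_false_of_lt (lt_of_lt_of_le ha h4),
      Nat.testBit_eq_false_of_lt (lt_of_lt_of_le hb h4)]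

/-- Words of a given weight. -/
theorem ncard_filter (P : ℕ → Bool) :
    {u | u ∈ PC ∧ ∃ m < 4096, u = pw (code m) ∧ P m = true}.ncard = countUpTo P 4096 := by
  have h : {u | u ∈ PC ∧ ∃ m < 4096, u = pw (code m) ∧ P m = true} =
      (fun m => pw (code m)) '' (((Finset.range 4096).filter fun m => P m = true : Finset ℕ) : Set ℕ) := by
    ext u
    simp only [Set.mem_ofPred_eq, Set.mem_image, Finset.coe_filter, Finset.mem_range]
    constructor
    · rintro ⟨-, m, hm, rfl, hP⟩
      exact ⟨m, ⟨hm, hP⟩, rfl⟩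
    · rintro ⟨m, ⟨hm, hP⟩, rfl⟩
      exact ⟨mem_PC_iff.mpr ⟨m, hm, rfl⟩, m, hm, rfl, hP⟩
  rw [h, Set.InjOn.ncard_image, Set.ncard_coe_finset, countUpTo_eq]
  intro a ha b hb hab
  simp only [Finset.coe_filter, Finset.mem_range, Set.mem_ofPred_eq] at ha hb
  exact pw_injOn ha.1 hb.1 hab

theorem ncard_PC : PC.ncard = 4096 := by
  have h := ncard_filter (fun _ => true)
  have e : {u | u ∈ PC ∧ ∃ m < 4096, u = pw (code m) ∧ (fun _ => true) m = true} = PC := by
    ext u
    simp only [Set.mem_ofPred_eq, and_true]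
    exact ⟨fun h => h.1, fun h => ⟨h, mem_PC_iff.mp h⟩⟩
  rw [e] at h
  rw [h]
  decide +kernel

theorem ncard_weight (k : ℕ) :
    {u | u ∈ PC ∧ hammingNorm u = k}.ncard =
      countUpTo (fun m => Nat.beq (pop (low (code m))) k) 4096 := by
  rw [← ncard_filter]
  congr 1
  ext u
  simp only [Set.mem_ofPred_eq]
  constructor
  · rintro ⟨hu, h⟩
    refine ⟨hu, ?_⟩
    obtain ⟨m, hm, rfl⟩ := mem_PC_iff.mp hu
    rw [hammingNorm_pw] at h
    exact ⟨m, hm, rfl, by rw [h]; exact Nat.beq_refl _⟩
  · rintro ⟨hu, m, hm, rfl, hP⟩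
    refine ⟨hu, ?_⟩
    rw [hammingNorm_pw]
    exact Nat.eq_of_beq_eq_true hP

theorem min_weight : ∀ m < 4096, m ≠ 0 → 7 ≤ pop (low (code m)) := by
  have h : allUpTo (fun m => (Nat.beq m 0 || Nat.ble 7 (pop (low (code m))))) 4096 = true := by
    decide +kernel
  intro m hm hm0
  have h1 := allUpTo_iff.mp h m hm
  simp only [Bool.or_eq_true] at h1
  rcases h1 with h1 | h1
  · exact absurd (Nat.eq_of_beq_eq_true h1) hm0
  · exact Nat.le_of_ble_eq_true h1

theorem pw_add (a b : ℕ) : pw (a ^^^ b) = pw a + pw b := by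
  funext x
  simp only [pw, wordOf_xor, Pi.add_apply]

theorem PC_sub {u v : ZMod 23 → ZMod 2} (hu : u ∈ PC) (hv : v ∈ PC) :
    ∃ m < 4096, u - v = pw (code m) := by
  obtain ⟨a, ha, rfl⟩ := mem_PC_iff.mp hu
  obtain ⟨b, hb, rfl⟩ := mem_PC_iff.mp hv
  refine ⟨a ^^^ b, lt_4096_xor ha hb, ?_⟩
  rw [code_xor ha hb, pw_add]
  funext x
  simp only [Pi.sub_apply, Pi.add_apply]
  exact CharTwo.sub_eq_add _ _

theorem pw_code_zero : pw (code 0) = 0 := by
  funext x
  rw [code_zero]
  simp [pw, wordOf]

end Cfsg.Agent.Lib.Golay23.Basic
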